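import Mathlib
import Cfsg.Agent.H542.Frobenius
import Cfsg.Agent.Lib.SubnormalJoin
import Cfsg.Agent.SolvableStructure.MinimalNormal

/-!
# Solvable groups with exactly `n` solutions of `x ^ n = 1`

If `G` is a finite solvable group, `n` divides `|G|` and `x ^ n = 1` has exactly `n` solutions, then
the solutions form a normal subgroup.
-/

set_option autoImplicit false

namespace Cfsg.Agent.H542.SolvCount

open Subgroup

universe u

/-- Counting the elements of `G` whose image in `G ⧸ K` has a given property. -/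
theorem card_lift {G : Type u} [Group G] [Finite G] (K : Subgroup G) [K.Normal]
    (S : G ⧸ K → Prop) :
    Nat.card {x : G // S (QuotientGroup.mk x)} = Nat.card {y : G ⧸ K // S y} * Nat.card K := by
  classical
  have : Fintype {y : G ⧸ K // S y} := Fintype.ofFinite _
  rw [← Nat.card_congr (Equiv.sigmaFiberEquiv
    (fun x : {x : G // S (QuotientGroup.mk x)} =>
      (⟨QuotientGroup.mk x.1, x.2⟩ : {y : G ⧸ K // S y}))), Nat.card_sigma]
  rw [Finset.sum_congr rfl (g := fun _ => Nat.card K)]
  · rw [Finset.sum_const, Finset.card_univ, ← Nat.card_eq_fintype_card, smul_eq_mul]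
  · rintro ⟨y, hy⟩ _
    obtain ⟨g, rfl⟩ := QuotientGroup.mk_surjective y
    refine Nat.card_congr ⟨fun x => ⟨g⁻¹ * x.1.1, ?_⟩, fun k => ⟨⟨g * k.1, ?_⟩, ?_⟩, ?_, ?_⟩
    · exact QuotientGroup.eq.1 (congrArg Subtype.val x.2).symm
    · have : (QuotientGroup.mk (g * k.1) : G ⧸ K) = QuotientGroup.mk g := by
        rw [QuotientGroup.eq]; simp
      rw [this]; exact hy
    · apply Subtype.ext
      change (QuotientGroup.mk (g * k.1) : G ⧸ K) = QuotientGroup.mk g
      rw [QuotientGroup.eq]; simp
    · intro x; apply Subtype.ext; apply Subtype.ext; simp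
    · intro k; apply Subtype.ext; simp

theorem pos_card_sol {G : Type u} [Group G] [Finite G] (n : ℕ) :
    0 < Nat.card {x : G // x ^ n = 1} := by
  have : Nonempty {x : G // x ^ n = 1} := ⟨⟨1, one_pow n⟩⟩
  exact Nat.card_pos

/-- A subgroup of order `n` all of whose elements are solutions. -/
theorem of_card {G : Type u} [Group G] [Finite G] {n : ℕ} (H : Subgroup G)
    (hc : Nat.card H = n) (hcount : Nat.card {x : G // x ^ n = 1} = n) :
    H.Normal ∧ (H : Set G) = {x : G | x ^ n = 1} := by
  have hsub : (H : Set G) ⊆ {x : G | x ^ n = 1} := by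
    intro x hx
    have h1 := orderOf_dvd_natCard (⟨x, hx⟩ : H)
    rw [hc, Subgroup.orderOf_mk] at h1
    exact orderOf_dvd_iff_pow_eq_one.1 h1
  have heq : (H : Set G) = {x : G | x ^ n = 1} := by
    apply Set.eq_of_subset_of_ncard_le hsub
    rw [← Nat.card_coe_set_eq, ← Nat.card_coe_set_eq]
    change Nat.card {x : G // x ^ n = 1} ≤ Nat.card H
    rw [hcount, hc]
  refine ⟨⟨fun x hx g => ?_⟩, heq⟩
  have hx' : x ∈ (H : Set G) := hx
  rw [heq] at hx'
  have : g * x * g⁻¹ ∈ (H : Set G) := by
    rw [heq]
    change (g * x * g⁻¹) ^ n = 1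
    rw [conj_pow, show x ^ n = 1 from hx', mul_one, mul_inv_cancel]
  exact this

theorem main (N : ℕ) : ∀ (G : Type u) [Group G] [Finite G] [Group.IsSolvable G], Nat.card G ≤ N →
    ∀ n : ℕ, n ∣ Nat.card G → Nat.card {x : G // x ^ n = 1} = n →
      ∃ H : Subgroup G, Nat.card H = n := by
  induction N with
  | zero =>
    intro G _ _ _ hG
    have := Nat.card_pos (α := G)
    omega
  | succ N ih =>
    intro G _ _ _ hG n hn hcount
    by_cases hnt : Nontrivial G
    swap
    · have h1 : Nat.card G = 1 := by
        rw [not_nontrivial_iff_subsingleton] at hnt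
        exact Nat.card_unique
      rw [h1, Nat.dvd_one] at hn
      exact ⟨⊥, by rw [hn]; simp⟩
    obtain ⟨K, hK, hKne, hmin⟩ := Lib.SubnormalJoin.exists_minimal_normal G
    obtain ⟨p, d, hp, hd, hcK, hexp⟩ :=
      SolvableStructure.MinimalNormal.exists_prime_of_minimal_normal K hKne hmin
    have hmul : Nat.card G = Nat.card (G ⧸ K) * Nat.card K := Subgroup.card_eq_card_quotient_mul_card_subgroup K
    have hKgt : 1 < Nat.card K := by
      rw [hcK]; exact Nat.one_lt_pow hd.ne' hp.one_lt
    have hQpos : 0 < Nat.card (G ⧸ K) := Nat.card_pos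
    have hlt : Nat.card (G ⧸ K) ≤ N := by
      have : Nat.card (G ⧸ K) < Nat.card G := by
        rw [hmul]; exact lt_mul_of_one_lt_right hQpos hKgt
      omega
    have hGpos : 0 < Nat.card G := Nat.card_pos
    have hnpos : 0 < n := Nat.pos_of_dvd_of_pos hn hGpos
    -- the sets of lifts
    have hle : ∀ s : ℕ, (∀ x : G, x ^ s ∈ K → x ^ n = 1) →
        Nat.card {y : G ⧸ K // y ^ s = 1} * Nat.card K ≤ n := by
      intro s hs
      rw [← card_lift K (fun y => y ^ s = 1), ← hcount]
      refine Nat.card_le_card_of_injective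
        (fun x : {x : G // (QuotientGroup.mk x : G ⧸ K) ^ s = 1} =>
          (⟨x.1, hs x.1 ?_⟩ : {x : G // x ^ n = 1})) ?_
      · have := x.2
        rw [← QuotientGroup.mk_pow, QuotientGroup.eq_one_iff] at this
        exact this
      · intro a b hab
        exact Subtype.ext (congrArg (fun z : {x : G // x ^ n = 1} => z.1) hab)
    by_cases hpn : p ∣ n
    · obtain ⟨j, s, hs, hns⟩ := Nat.exists_eq_pow_mul_and_not_dvd hnpos.ne' p hp.ne_one
      have hj : 0 < j := by
        rcases Nat.eq_zero_or_pos j with h0 | h0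
        · rw [h0, pow_zero, one_mul] at hns
          exact absurd (hns ▸ hpn) hs
        · exact h0
      have hcop : Nat.Coprime s p := ((Nat.Prime.coprime_iff_not_dvd hp).2 hs).symm
      have hsQ : s ∣ Nat.card (G ⧸ K) := by
        have h1 : s ∣ Nat.card (G ⧸ K) * p ^ d := by
          rw [← hcK, ← hmul]
          exact dvd_trans (hns ▸ dvd_mul_left _ _) hn
        exact (Nat.Coprime.pow_right d hcop).dvd_of_dvd_mul_right h1
      have hpd : p ^ d ∣ n := by
        by_contra hcon
        have hjd : j < d := by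
          by_contra hge
          exact hcon (hns ▸ dvd_mul_of_dvd_left (pow_dvd_pow p (not_lt.1 hge)) s)
        have h1 := hle s (by
          intro x hx
          have h2 := hexp _ hx
          rw [hns, mul_comm, pow_mul]
          obtain ⟨i, rfl⟩ : ∃ i, j = i + 1 := ⟨j - 1, by omega⟩
          rw [pow_succ', pow_mul, h2, one_pow])
        have h3 := Frobenius.frobenius_dvd hsQ
        have h4 := Nat.le_of_dvd (pos_card_sol s) h3
        have hspos : 0 < s := Nat.pos_of_ne_zero (fun h => hs (h ▸ dvd_zero p))
        have h5 : p ^ j < p ^ d := Nat.pow_lt_pow_right hp.one_lt hjd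
        have h6 : n < Nat.card {y : G ⧸ K // y ^ s = 1} * Nat.card K := by
          calc n = s * p ^ j := by rw [hns, mul_comm]
            _ < s * p ^ d := Nat.mul_lt_mul_of_pos_left h5 hspos
            _ ≤ Nat.card {y : G ⧸ K // y ^ s = 1} * Nat.card K := by
              rw [hcK]; exact Nat.mul_le_mul_right _ h4
        omega
      obtain ⟨m, hm⟩ := hpd
      have hmpos : 0 < m := Nat.pos_of_ne_zero (by rintro rfl; omega)
      have hppos : 0 < p ^ d := pow_pos hp.pos d
      have hmQ : m ∣ Nat.card (G ⧸ K) := by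
        have h1 : p ^ d * m ∣ p ^ d * Nat.card (G ⧸ K) := by
          rw [← hm, ← hcK, mul_comm (Nat.card K), ← hmul]; exact hn
        exact Nat.dvd_of_mul_dvd_mul_left hppos h1
      have h1 := hle m (by
        intro x hx
        have h2 : (⟨x ^ m, hx⟩ : K) ^ Nat.card K = 1 := pow_card_eq_one'
        have h3 := congrArg Subtype.val h2
        change (x ^ m) ^ Nat.card K = 1 at h3
        rw [hm, mul_comm, pow_mul, ← hcK]; exact h3)
      have h3 := Frobenius.frobenius_dvd hmQ
      have h4 := Nat.le_of_dvd (pos_card_sol m) h3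
      have h5 : Nat.card {y : G ⧸ K // y ^ m = 1} = m := by
        apply le_antisymm _ h4
        rw [hcK, hm, mul_comm] at h1
        exact Nat.le_of_mul_le_mul_left h1 hppos
      obtain ⟨H, hH⟩ := ih (G ⧸ K) hlt m hmQ h5
      refine ⟨H.comap (QuotientGroup.mk' K), ?_⟩
      have h6 := card_lift K (fun y => y ∈ H)
      have h7 : Nat.card {y : G ⧸ K // y ∈ H} = m := hH
      rw [h7] at h6
      calc Nat.card (H.comap (QuotientGroup.mk' K)) = m * Nat.card K := h6
        _ = n := by rw [hcK, hm, mul_comm]
    · have hcop : Nat.Coprime n p := ((Nat.Prime.coprime_iff_not_dvd hp).2 hpn).symm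
      have hcopd : Nat.Coprime n (p ^ d) := Nat.Coprime.pow_right d hcop
      have hnQ : n ∣ Nat.card (G ⧸ K) := by
        have h1 : n ∣ Nat.card (G ⧸ K) * p ^ d := by
          rw [← hcK, ← hmul]; exact hn
        exact hcopd.dvd_of_dvd_mul_right h1
      have h3 := Frobenius.frobenius_dvd hnQ
      have h4 := Nat.le_of_dvd (pos_card_sol n) h3
      have h5 : Nat.card {y : G ⧸ K // y ^ n = 1} = n := by
        apply le_antisymm _ h4
        conv_rhs => rw [← hcount]
        refine Nat.card_le_card_of_surjective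
          (fun x : {x : G // x ^ n = 1} =>
            (⟨QuotientGroup.mk x.1, by rw [← QuotientGroup.mk_pow, x.2]; rfl⟩ :
              {y : G ⧸ K // y ^ n = 1})) ?_
        rintro ⟨y, hy⟩
        obtain ⟨g, rfl⟩ := QuotientGroup.mk_surjective y
        -- `g ^ n ∈ K`, choose `t` with `p * t ≡ 1 mod n`
        have hgn : g ^ n ∈ K := by
          rw [← QuotientGroup.mk_pow, QuotientGroup.eq_one_iff] at hy
          exact hy
        obtain ⟨t, ht⟩ := exists_pow_eq_self_of_coprime
          (x := (QuotientGroup.mk g : G ⧸ K)) (n := p)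
          (Nat.Coprime.coprime_dvd_right (orderOf_dvd_of_pow_eq_one hy) hcop.symm)
        refine ⟨⟨(g ^ p) ^ t, ?_⟩, ?_⟩
        · rw [← pow_mul, ← pow_mul, show p * (t * n) = n * p * t by ring, pow_mul, pow_mul,
            hexp _ hgn, one_pow]
        · apply Subtype.ext
          change (QuotientGroup.mk ((g ^ p) ^ t) : G ⧸ K) = QuotientGroup.mk g
          rw [QuotientGroup.mk_pow, QuotientGroup.mk_pow]; exact ht
      obtain ⟨H, hH⟩ := ih (G ⧸ K) hlt n hnQ h5
      set L := H.comap (QuotientGroup.mk' K) with hL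
      have hLc : Nat.card L = n * Nat.card K := by
        have h6 := card_lift K (fun y => y ∈ H)
        have h7 : Nat.card {y : G ⧸ K // y ∈ H} = n := hH
        rw [h7] at h6
        exact h6
      have hKL : K ≤ L := by
        intro x hx
        rw [hL, mem_comap, QuotientGroup.mk'_apply, (QuotientGroup.eq_one_iff x).2 hx]
        exact one_mem _
      have hKLc : Nat.card (K.subgroupOf L) = Nat.card K :=
        Nat.card_congr (Subgroup.subgroupOfEquivOfLe hKL).toEquiv
      have hidx : (K.subgroupOf L).index = n := by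
        have h8 := Subgroup.card_mul_index (K.subgroupOf L)
        rw [hKLc, hLc, mul_comm] at h8
        exact Nat.eq_of_mul_eq_mul_right (by omega) h8
      obtain ⟨T, hT⟩ := Subgroup.exists_right_complement'_of_coprime (N := K.subgroupOf L) (by
        rw [hKLc, hidx, hcK]; exact hcopd.symm)
      refine ⟨T.map L.subtype, ?_⟩
      rw [Nat.card_congr (T.equivMapOfInjective L.subtype L.subtype_injective).symm.toEquiv]
      rw [← hidx, hT.symm.index_eq_card]

/-- **Frobenius' conjecture for solvable groups.** -/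
theorem exists_normal {G : Type u} [Group G] [Finite G] [Group.IsSolvable G] (n : ℕ)
    (hn : n ∣ Nat.card G) (hcount : Nat.card {x : G // x ^ n = 1} = n) :
    ∃ H : Subgroup G, H.Normal ∧ (H : Set G) = {x : G | x ^ n = 1} := by
  obtain ⟨H, hH⟩ := main (Nat.card G) G le_rfl n hn hcount
  exact ⟨H, of_card H hH hcount⟩

end Cfsg.Agent.H542.SolvCount
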